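import Cfsg.Agent.Lib.Cover.F24C
import Cfsg.Agent.Lib.Cover.F24x2
import Cfsg.Agent.Lib.Cover.F24x3
import Cfsg.Agent.Lib.Schur.MulHe
import Cfsg.Agent.Lib.CosetEnum.He24

/-! The Schur multiplier of `Fi24'`. -/

set_option autoImplicit false
set_option maxRecDepth 100000

namespace H19.F24

open H54 H7 H18.TC H18.Fi24 H19.Cov H96.F24 Cfsg
open scoped commutatorElement

theorem rc_ok {R : List ℕ} (h : R ∈ RC) : cocIs 306936 preG kA kB 0 0 R = true := by
  have e : RC = (RC.drop 0).take 13 ++ ((RC.drop 13).take 13 ++ ((RC.drop 26).take 13 ++ ((RC.drop 39).take 13 ++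
    ((RC.drop 52).take 13 ++ (RC.drop 65).take 13)))) := by decide +kernel
  rw [e] at h
  simp only [List.mem_append] at h
  rcases h with h | h | h | h | h | h
  exacts [(allL_iff _ _).1 c0 R h, (allL_iff _ _).1 c1 R h, (allL_iff _ _).1 c2 R h, (allL_iff _ _).1 c3 R h,
    (allL_iff _ _).1 c4 R h, (allL_iff _ _).1 c5 R h]

theorem low : H60.LowB Spor.Fi24' 3 := by
  obtain ⟨φ, T⟩ := exists_phi
  have hk : ∀ x, x < 12 → kA x &&& kB x = 0 := fun x hx => Nat.eq_of_beq_eq_true ((allLt_iff _ _).1 disj x hx)
  let t := lift3 12 (fun x => φ (s x)) kA kB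
  have one : ∀ R ∈ R24, ev (fun x => φ (s x)) R = 1 := fun R hR => by rw [← map_ev, sat.rel R hR, map_one]
  have triv : ∀ R ∈ R24, (∀ x ∈ R, x < 12) → Even R.length → cocIs 306936 preG kA kB 0 0 R = true → ev t R = 1 :=
    fun R hR l e c => Equiv.ext fun ⟨i, a⟩ => by
      rw [ev_lift3 T R l, one R hR, cocIs_spec lets hk l c i.2, e.neg_one_pow]
      simp [tv]
  have hRC : ∀ R ∈ RC, ev t R = 1 := fun R hR => triv R (List.mem_append_left _ hR)
    ((by decide +kernel : ∀ R ∈ RC, ∀ x ∈ R, x < 12) R hR) ((by decide +kernel : ∀ R ∈ RC, Even R.length) R hR) (rc_ok hR)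
  have h7 : ev t e7 = 1 := triv e7 (by decide +kernel) (by decide +kernel) (by decide +kernel) c6
  have hz : ∀ i a, ev t (rep 17 zb) (i, a) = (i, a + 1) := fun i a => by
    have : ∀ (m : ℕ) i a, (ev t zb ^ m) (i, a) = ((ev (fun x => φ (s x)) zb ^ m) i, a + 2 * m) := fun m => by
      induction m with
      | zero => simp
      | succ m ih =>
        intro i a
        rw [pow_succ, Equiv.Perm.mul_apply, ev_lift3 T zb (by decide), cocIs_spec lets hk (by decide) c7 i.2,
          testBit_full, decide_eq_true i.2, ih, pow_succ, Equiv.Perm.mul_apply]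
        refine Prod.ext rfl ?_
        simp only [tv, zb, Nat.zero_testBit, List.length_cons, List.length_nil]
        push_cast
        ring
    rw [ev_rep, this, ← ev_rep, one _ (by decide +kernel)]
    exact Prod.ext rfl (congrArg (a + ·) (by decide))
  have h2 : ∀ x, t x * t x = 1 := fun x => by
    by_cases hx : x < 12
    · have := hRC [x, x] (by interval_cases x <;> decide)
      rwa [ev_cons, ev_single] at this
    · simp only [t, lift3, if_neg hx, mul_one]
  have h1 : t 12 = 1 := if_neg (lt_irrefl _)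
  have hE : ∀ x, t x ∈ gsub t (List.range 12) := fun x => by
    by_cases hx : x < 12
    · exact mem_gsub t (List.mem_range.2 hx)
    · simp only [t, lift3, if_neg hx, one_mem]
  let g : ℕ → gsub t (List.range 12) := fun x => ⟨t x, hE x⟩
  have hv : ∀ w, (ev g w).1 = ev t w := fun w => map_ev (Subgroup.subtype _) g w
  have sC : Sat g 12 RC := Sat.lift ⟨fun x => eq_inv_of_mul_eq_one_left (h2 x), h1, hRC⟩ hE
  have fst : ∀ y ∈ Subgroup.zpowers (ev g (rep 17 zb)), ∀ i a, (y.1 (i, a)).1 = i := fun y hy => by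
    rw [← mem_powers_iff_mem_zpowers] at hy
    obtain ⟨m, rfl⟩ := hy
    induction m with
    | zero => exact fun _ _ => rfl
    | succ m ih => intro i a; simp only [pow_succ, Subgroup.coe_mul, Equiv.Perm.mul_apply, hv, hz]; exact ih _ _
  refine lowB_of_tri (fun h => exists_hom h) le_of_normal ?_ (fun x hx y hy => ?_) (g := g) (gsub_lift_top hE rfl)
    (fun x => Subtype.ext (h2 x)) (Subtype.ext h1) (w := ev g (rep 17 zb)) ?_ (fun x hx => ?_) (fun R hR => ?_)
    (by norm_num) ⟨g 1, g 0, fun h => ?_⟩ fun x hx => ?_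
  · have := simple
    refine (Subgroup.Normal.eq_bot_or_eq_top inferInstance).resolve_left fun h => ?_
    let _ : CommGroup Spor.Fi24' := Group.commGroupOfCenterEqTop ((commutator_eq_bot_iff_center_eq_top _).1 h)
    have := IsSimpleGroup.prime_card (α := Spor.Fi24')
    rw [card_commutator] at this
    exact absurd (this.eq_one_or_self_of_dvd 2 (by norm_num)) (by norm_num)
  · rw [commutator_eq, MonoidHom.mem_ker, map_mul, sgn_s hx, sgn_s hy]; rfl
  · refine orderOf_eq_prime (Subtype.ext (Equiv.ext fun ⟨i, a⟩ => ?_)) fun h => ?_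
    · simp only [pow_three, Subgroup.coe_mul, Equiv.Perm.mul_apply, hv, hz, add_assoc]
      exact Prod.ext rfl (add_zero a)
    · have := hz 0 0
      rw [← hv, h] at this
      exact absurd (show (0 : ZMod 3) = 0 + 1 from congrArg Prod.snd this) (by decide)
  · rw [mul_inv_eq_iff_eq_mul, eq_inv_mul_iff_mul_eq]
    refine Subtype.ext (Equiv.ext fun ⟨i, a⟩ => ?_)
    have e : ∀ i a, (g x).1 (i, a) = (φ (s x) i, tv ((kA x).testBit i) ((kB x).testBit i) - a) := fun i a => by
      simp only [g, t, lift3, if_pos hx, Equiv.prodShear_apply, Equiv.subLeft_apply]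
    simp only [Subgroup.coe_mul, Equiv.Perm.mul_apply, hv, hz, e]
    exact Prod.ext rfl (by ring)
  · rw [R24] at hR
    simp only [List.mem_append, List.mem_cons, List.not_mem_nil, or_false] at hR
    rcases hR with hR | rfl | rfl
    · rw [sC.rel R hR]; exact one_mem _
    · rw [show ev g e7 = 1 from Subtype.ext ((hv _).trans h7)]; exact one_mem _
    · exact Subgroup.mem_zpowers _
  · have e : ⁅g 1, g 0⁆ = ev g [0, 1, 0, 1] := by
      simp only [commutatorElement_def, ev_cons, ev_nil, one_mul, ← sC.inv]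
    have := fst _ h (finPt 306936 0) 0
    rw [e, hv, ev_lift3 T _ (by decide)] at this
    have a := (T.tr (w := [0, 1, 0, 1]) (by decide) (u := 0) (by norm_num))
    exact absurd (finPt_inj _ _ a.1 (by norm_num) (a.2.symm.trans this)) (by decide +kernel)
  · by_cases h : x = 1
    · exact ⟨3, by norm_num, h ▸ (comm_k sC 3 (by decide)).symm, comm_l sC 3 (by decide)⟩
    · exact ⟨0, by norm_num, comm_l sC x (mem_Hl.2 ⟨hx, h⟩), .refl _⟩

theorem mult : HasCyclicSchurMultiplier Spor.Fi24' 3 := by
  obtain ⟨K, hK, ⟨e⟩⟩ := H18.He24.exists_he model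
  have hφ : Function.Injective ((Subgroup.inclusion hK).comp e.symm.toMonoidHom) :=
    (Subgroup.inclusion_injective hK).comp e.symm.injective
  exact H60.hasCyclic_of_bounds card_commutator (ps := [2, 3, 5, 7]) (by decide +kernel) 3 (H60.forall_mem_four
    (.zero (u2_exp card_commutator u2_real))
    (.pos 1 (by norm_num) (u3_exp card_commutator u3_real) (u3_gen card_commutator u3_real))
    (.zero (H60.expB_of_certF H60.He.d5a_fmt (by decide +kernel) (real_map _ hφ H60.He.d5_real) 50208228367626468851712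
      (card_commutator.trans (by decide +kernel)) (by decide +kernel) 0 rfl rfl (by decide +kernel) H60.He.d5a_cert
      (by decide +kernel) H60.He.d5a_rows))
    (.zero (H60.expB_of_certF H60.He.d7a_fmt (by decide +kernel) (real_map _ hφ H60.He.d7_real) 3659491863529626009600
      (card_commutator.trans (by decide +kernel)) (by decide +kernel) 0 rfl rfl (by decide +kernel) H60.He.d7a_cert
      (by decide +kernel) H60.He.d7a_rows))) low

end H19.F24
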