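import Cfsg.Agent.Lib.Cover.Tri
import Cfsg.Agent.Lib.Cover.F24K
import Cfsg.Agent.Lib.CosetEnum.Fi24A
import Cfsg.Agent.Lib.Fi24.G24

/-! The cocycle of the triple cover of `Fi24` vanishes on the relators of `3.Fi24`. -/

set_option autoImplicit false
set_option maxRecDepth 100000
set_option Elab.async false

namespace H19.F24

open H54 H7 H18.TC H18.Fi24 H19.Cov H96.F24

/-- the check of `k` relators from the number `lo` on -/
noncomputable def ck (lo k : ℕ) : Bool := allL (cocIs 306936 preG kA kB 0 0) ((RC.drop lo).take k)

theorem disj : allLt (fun x => Nat.beq (Nat.land (kA x) (kB x)) 0) 12 = true := by decide +kernel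
theorem c0 : ck 0 13 = true := by decide +kernel
theorem c1 : ck 13 13 = true := by decide +kernel
theorem c2 : ck 26 13 = true := by decide +kernel
theorem c3 : ck 39 13 = true := by decide +kernel
theorem c4 : ck 52 13 = true := by decide +kernel
theorem c5 : ck 65 13 = true := by decide +kernel
theorem c6 : cocIs 306936 preG kA kB 0 0 e7 = true := by decide +kernel
theorem c7 : cocIs 306936 preG kA kB 0 (full 306936) zb = true := by decide +kernel

end H19.F24
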