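import Cfsg.Agent.Lib.Schur.Word
import Cfsg.Agent.Lib.CosetEnum.Fi24
import Cfsg.Agent.Lib.Fi24.Pn

/-! Polycyclic presentations realised in `Fi24'` by even words in the alphabet of `Fi24`. -/

set_option autoImplicit false

namespace H19.Cov

open H54 H7 H60 H96.F24 Cfsg

/-- the weight of a word -/
noncomputable def wtW (od : ℕ → ℕ) (w : W) : ℕ := W.rec (motive := fun _ => ℕ) 0 (fun k _ ih => Nat.add (od k) ih) w

theorem sgn_ev {G : Type*} [Group G] {P : ℕ → Bool} {s : ℕ → G} {χ : G →* ℤˣ} {od : ℕ → ℕ}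
    (h : ∀ k, P k = true → χ (s k) = (-1) ^ od k) : ∀ {w : W}, w.all P = true → χ (W.ev s w) = (-1) ^ wtW od w
  | .nil, _ => map_one χ
  | .cons k _, a => by
    rw [W.ev_cons, map_mul, h k (W.all_cons.1 a).1, sgn_ev h (W.all_cons.1 a).2, ← pow_add]; rfl

/-- the length of a letter in the generators -/
noncomputable def od24 (k : ℕ) : ℕ := wtW (fun j => wtW (fun _ => 1) (df1 j)) (df2 k)

theorem sgn_let {k : ℕ} (hk : k < 31) : H18.Fi24.sgn ((env H18.Fi24.model).s k) = (-1) ^ od24 k :=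
  sgn_ev (s := (env1 H18.Fi24.model).s) (fun j hj => sgn_ev (s := H18.Fi24.model.s) (fun i hi => by
    rw [H18.Fi24.model_s (lt0 hi), H18.Fi24.sgn_s (lt0 hi), pow_one]) (def_all1 H18.Fi24.model j (lt1 hj)).1)
    (def_all2 H18.Fi24.model k hk).1

/-- the word number `i` is even -/
noncomputable def evenAt (t : Tr) (i : ℕ) : Bool :=
  Nat.beq (Nat.mod (pe (fun l s => Nat.add (od24 l) s) (t.get i) 0) 2) 0

noncomputable def evenW (gs hs : Tr) (d : Pc) : Bool :=
  band (allLt (evenAt gs) (Nat.succ d.n)) (allLt (evenAt hs) d.nf)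

theorem mem_of_evenAt {t : Tr} {i : ℕ} (h : ltW 31 t i = true) (e : evenAt t i = true) :
    pw (env H18.Fi24.model).s (t.get i) ∈ commutator Spor.Fi24 := by
  have := peA_ok (ap := fun l s => Nat.add (od24 l) s) (f := (env H18.Fi24.model).s)
    (σ := fun s g => H18.Fi24.sgn g = (-1) ^ s) (ok := fun a => Nat.ble (Nat.succ a) 31) (fun l hl s g a => by
      rw [map_mul, a, sgn_let (Nat.le_of_ble_eq_true hl), ← pow_add]; rfl) _ _ 0 1 h (map_one _)
  rw [H18.Fi24.commutator_eq, MonoidHom.mem_ker]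
  exact ((congrArg _ (mul_one _).symm).trans this).trans (Even.neg_one_pow (Nat.even_iff.2 (Nat.eq_of_beq_eq_true e)))

theorem wd24 : Wd (env H18.Fi24.model).s (fun j => H94.CPt.of ((env H18.Fi24.model).x j)) tabA 31 306936 bs where
  act l hl x hx := ⟨okA.lt l (Alph.lt_iff.2 hl) x hx, (env H18.Fi24.model).cj l (Alph.lt_iff.2 hl) x hx⟩
  inj := (env H18.Fi24.model).inj
  lt := (rigid H18.Fi24.model).1
  base g hg := (rigid H18.Fi24.model).2 g fun p hp => H94.CPt.smul_eq_self_iff.1 (hg p hp)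

theorem real24 {d : Pc} {e : Lp} {S : ℕ} (hf : fmtOk d e S = true) {gs hs : Tr}
    (h1 : rulesOk (actW tabA gs) bs d 0 (d.n + 1) = true)
    (h2 : allFrom (fusOne (actW tabA gs) (actW tabA hs) bs d) 0 d.nf = true) {l : Lvs}
    (h3 : lowW tabA 31 306936 gs hs d l = true) (h4 : evenW gs hs d = true) : d.Real Spor.Fi24' := by
  classical
  simp only [lowW, evenW, band_eq_true, Nat.beq_eq, allL_iff, allLt_iff, Nat.ble_eq] at h3 h4
  obtain ⟨a0, a1, a2, a3, a4, a5⟩ := h3
  let u : Tr → ℕ → Spor.Fi24' := fun t i =>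
    if h : pw (env H18.Fi24.model).s (t.get i) ∈ commutator Spor.Fi24 then ⟨_, h⟩ else 1
  have hu : ∀ t i, ltW 31 t i = true → evenAt t i = true → ∀ x, x < 306936 → actW tabA t i x < 306936 ∧
      u t i • H94.CPt.of ((env H18.Fi24.model).x x) = H94.CPt.of ((env H18.Fi24.model).x (actW tabA t i x)) :=
    fun t i a b => by simp only [u, dif_pos (mem_of_evenAt a b)]; exact wd24.word a
  exact real_of_acts (V := (· < 306936)) (pt := fun j => H94.CPt.of ((env H18.Fi24.model).x j)) (g := u gs) (h := u hs)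
    (MonoidHom.id _) (fmtOk_spec hf).1 (fun i hi => hu gs i (a1 i (by omega)) (h4.1 i (by omega)))
    (by simp only [u, a0]; split; exacts [rfl, rfl]) (fun i hi => hu hs i (a2 i hi) (h4.2 i hi)) wd24.inj
    (fun x hx y _ => by rw [show x = 1 from hx, one_smul]) wd24.lt
    (fun x hx => Subtype.ext (wd24.base x hx)) h1 (fusOk_of_from h2) a3 a4 a5

end H19.Cov
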