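import Cfsg.Agent.Lib.Schur.PcRep
import Cfsg.Agent.Lib.Schur.Asm
import Cfsg.Agent.Lib.CosetEnum.Mask

/-! Triple covers of a group generated by involutions that invert the kernel, from a cocycle on a permutation table. -/

set_option autoImplicit false

namespace H19.Cov

open H54 H7 H18.TC
open scoped commutatorElement

theorem real_map {H G : Type*} [Group H] [Group G] {d : H60.Pc} (φ : H →* G) (hφ : Function.Injective φ)
    (h : d.Real H) : d.Real G := by
  obtain ⟨g, h, H1, H2⟩ := h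
  have e : ∀ w, H60.evP (fun i => φ (g i)) w = φ (H60.evP g w) := fun w => (H60.map_evP φ g w).symm
  refine ⟨fun i => φ (g i), fun i => φ (h i), ⟨by simp only [H1.zero, map_one], fun j hj i hi => ?_, fun f hf x hx => ?_⟩, ?_⟩
  · rw [e, ← H1.rule j hj i hi, H60.Pc.lhs, H60.Pc.lhs, apply_ite φ, map_pow, map_mul]
  · simp only [e, ← map_mul, H1.fus f hf x hx]
  · rwa [← Set.image_image φ g, ← MonoidHom.map_closure, Subgroup.card_map_of_injective hφ]

theorem lowB_of_tri {Q E : Type} [Group Q] [Group E] {s : ℕ → Q} {nc : ℕ} {Rs : List (List ℕ)}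
    (ex : ∀ {G : Type} [Group G] {g : ℕ → G}, Sat g nc Rs → ∃ φ : Q →* G, ∀ x, x < nc → φ (s x) = g x)
    (hN : ∀ N : Subgroup Q, N.Normal → N ≠ ⊥ → commutator Q ≤ N) (hp : commutator (commutator Q) = ⊤)
    (hs : ∀ x, x < nc → ∀ y, y < nc → s x * s y ∈ commutator Q) {g : ℕ → E}
    (top : gsub g (List.range nc) = ⊤) (h2 : ∀ x, g x * g x = 1) (h1 : g nc = 1) {w : E} (ho : orderOf w = 3)
    (hc : ∀ x, x < nc → g x * w * (g x)⁻¹ = w⁻¹) (hR : ∀ R ∈ Rs, ev g R ∈ Subgroup.zpowers w) (h0 : 0 < nc)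
    (hn : ∃ a b : E, ⁅a, b⁆ ∉ Subgroup.zpowers w)
    (conn : ∀ x, x < nc → ∃ y, y < nc ∧ Commute (g x) (g y) ∧ Commute (g y) (g 0)) :
    H60.LowB (commutator Q) 3 := by
  have all : ∀ K : Subgroup E, (∀ x, x < nc → g x ∈ K) → ∀ e, e ∈ K := fun K hK e =>
    (top ▸ gsub_le fun x hx => hK x (List.mem_range.1 hx) : (⊤ : Subgroup E) ≤ K) (Subgroup.mem_top e)
  have w3 : w ^ 3 = 1 := ho ▸ pow_orderOf_eq_one w
  have key : ∀ e : E, e * w * e⁻¹ = w ∨ e * w * e⁻¹ = w⁻¹ := by
    have a : ∀ e : E, e * w⁻¹ * e⁻¹ = (e * w * e⁻¹)⁻¹ := fun e => by group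
    refine all ⟨⟨⟨{e | e * w * e⁻¹ = w ∨ e * w * e⁻¹ = w⁻¹}, fun {x y} hx hy => ?_⟩, .inl (by group)⟩,
      fun {x} hx => ?_⟩ fun x hx => .inr (hc x hx)
    · show _ ∨ _
      rw [show x * y * w * (x * y)⁻¹ = x * (y * w * y⁻¹) * x⁻¹ by group]
      rcases hy with hy | hy <;> rw [hy]
      · exact hx
      · rw [a, inv_inj, inv_eq_iff_eq_inv]; exact hx.symm
    · rcases hx with hx | hx
      · exact .inl (by nth_rw 1 [← hx]; group)
      · have h' : x * w⁻¹ * x⁻¹ = w := by rw [a, hx, inv_inv]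
        exact .inr (by nth_rw 1 [← h']; group)
  have : (Subgroup.zpowers w).Normal := ⟨fun a ⟨k, hk⟩ y => by
    rw [← hk, ← conj_zpow]
    rcases key y with h | h <;> rw [h]
    exacts [⟨k, rfl⟩, Subgroup.zpow_mem _ (Subgroup.inv_mem _ (Subgroup.mem_zpowers w)) k]⟩
  let π := QuotientGroup.mk' (Subgroup.zpowers w)
  obtain ⟨φ, hφ⟩ := ex (g := fun x => π (g x)) ⟨fun x => eq_inv_of_mul_eq_one_left (by rw [← map_mul, h2, map_one]),
    by simp only [h1, map_one], fun R h => by rw [← map_ev]; exact (QuotientGroup.eq_one_iff _).2 (hR R h)⟩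
  have hsu : Function.Surjective φ := fun y => by
    obtain ⟨y, rfl⟩ := QuotientGroup.mk'_surjective _ y
    exact all (φ.range.comap π) (fun x hx => ⟨s x, hφ x hx⟩) y
  have hi : Function.Injective φ := by
    rw [← MonoidHom.ker_eq_bot_iff]
    by_contra h
    obtain ⟨a, b, hab⟩ := hn
    obtain ⟨a', ha⟩ := hsu (π a)
    obtain ⟨b', hb⟩ := hsu (π b)
    refine hab ((QuotientGroup.eq_one_iff _).1 (show π _ = 1 from ?_))
    rw [map_commutatorElement, ← ha, ← hb, ← map_commutatorElement]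
    exact hN _ inferInstance h (Subgroup.commutator_mem_commutator trivial trivial)
  let e := MulEquiv.ofBijective φ ⟨hi, hsu⟩
  let ρ : E →* Q := e.symm.toMonoidHom.comp π
  have hρ : Function.Surjective ρ := e.symm.surjective.comp (QuotientGroup.mk'_surjective _)
  have hker : ∀ y, ρ y = 1 ↔ y ∈ Subgroup.zpowers w := fun y =>
    e.symm.map_eq_one_iff.trans (QuotientGroup.eq_one_iff _)
  have hg : ∀ x, x < nc → ρ (g x) = s x := fun x hx => e.symm_apply_eq.2 (hφ x hx).symm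
  have hm : (commutator E).map ρ = commutator Q := by
    rw [commutator_def, Subgroup.map_commutator, Subgroup.map_top_of_surjective _ hρ, commutator_def]
  have hw : ⁅g 0, w⁆ = w := by
    rw [commutatorElement_def, hc 0 h0, ← mul_inv_rev, inv_eq_iff_mul_eq_one, ← pow_three', w3]
  have hwE : w ∈ commutator E := hw ▸ Subgroup.commutator_mem_commutator trivial trivial
  have hC : commutator E ≤ Subgroup.centralizer {w} := Subgroup.commutator_le.2 fun a _ b _ => by
    rw [Subgroup.mem_centralizer_singleton_iff, ← mul_inv_eq_iff_eq_mul,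
      show ⁅a, b⁆ * w * ⁅a, b⁆⁻¹ = a * (b * (a⁻¹ * (b⁻¹ * w * b) * a) * b⁻¹) * a⁻¹ by
        rw [commutatorElement_inv, commutatorElement_def, commutatorElement_def]; group]
    have k : ∀ e : E, (e * w * e⁻¹ = w ∧ e * w⁻¹ * e⁻¹ = w⁻¹ ∧ e⁻¹ * w * e = w ∧ e⁻¹ * w⁻¹ * e = w⁻¹) ∨
        (e * w * e⁻¹ = w⁻¹ ∧ e * w⁻¹ * e⁻¹ = w ∧ e⁻¹ * w * e = w⁻¹ ∧ e⁻¹ * w⁻¹ * e = w) := fun e => by
      rcases key e with h | h
      · exact .inl ⟨h, by nth_rw 2 [← h]; group, by nth_rw 1 [← h]; group, by nth_rw 1 [← h]; group⟩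
      · have h' : e * w⁻¹ * e⁻¹ = w := by rw [← inv_inj]; nth_rw 2 [← h]; group
        exact .inr ⟨h, h', by nth_rw 1 [← h']; group, by rw [← h]; group⟩
    rcases k a with ⟨a1, a2, a3, a4⟩ | ⟨a1, a2, a3, a4⟩ <;> rcases k b with ⟨b1, b2, b3, b4⟩ | ⟨b1, b2, b3, b4⟩ <;>
      simp only [a1, a2, a3, a4, b1, b2, b3]
  let N := ⁅commutator E, commutator E⁆
  let π' := QuotientGroup.mk' N
  have eq : ∀ x, x < nc → ∀ y, y < nc → Commute (g x) (g y) → π' (g x) = π' (g y) := fun x hx y hy c => by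
    have : s x * s y ∈ N.map ρ := by
      rw [Subgroup.map_commutator, hm, ← Subgroup.map_subtype_commutator, hp, ← MonoidHom.range_eq_map,
        Subgroup.range_subtype]
      exact hs x hx y hy
    obtain ⟨m, hm1, hm2⟩ := this
    obtain ⟨k, hk⟩ := (hker (m⁻¹ * (g x * g y))).1 (by rw [map_mul, map_mul, map_inv, hm2, hg x hx, hg y hy, inv_mul_cancel])
    have a3 : π' (g x * g y) ^ 3 = 1 := by
      have : π' (g x * g y) = π' (w ^ k) := by
        rw [show w ^ k = _ from hk, map_mul π' m⁻¹, map_inv, show π' m = 1 from (QuotientGroup.eq_one_iff _).2 hm1,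
          inv_one, one_mul]
      rw [this, ← map_pow, ← zpow_natCast, ← zpow_mul, mul_comm, zpow_mul, zpow_natCast, w3, one_zpow, map_one]
    have a2 : π' (g x * g y) ^ 2 = 1 := by rw [← map_pow, c.mul_pow, pow_two, pow_two, h2, h2, mul_one, map_one]
    rw [pow_succ, a2, one_mul, map_mul] at a3
    rw [eq_inv_of_mul_eq_one_left a3, inv_eq_iff_mul_eq_one, ← map_mul, h2, map_one]
  have hwN : w ∈ N := by
    rw [← QuotientGroup.eq_one_iff, ← hw]
    show π' _ = 1
    rw [map_commutatorElement, commutatorElement_eq_one_iff_mul_comm]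
    refine (Subgroup.mem_centralizer_singleton_iff.1 (all ((Subgroup.centralizer {π' (g 0)}).comap π')
      (fun x hx => ?_) w)).symm
    obtain ⟨y, hy, c1, c2⟩ := conn x hx
    rw [Subgroup.mem_comap, Subgroup.mem_centralizer_singleton_iff, eq x hx y hy c1, eq y hy 0 h0 c2]
  refine H60.lowB_of_elt ((ρ.comp (commutator E).subtype).codRestrict (commutator Q) fun x => hm.le ⟨x, x.2, rfl⟩)
    (fun y => ?_) (fun z hz => ?_) (z := ⟨w, hwE⟩) (Subtype.ext ((hker w).2 (Subgroup.mem_zpowers w))) ?_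
    (by rw [← ho, Subgroup.orderOf_mk])
  · obtain ⟨x, hx, e⟩ := hm.ge y.2
    exact ⟨⟨x, hx⟩, Subtype.ext e⟩
  · obtain ⟨k, hk⟩ := (hker z).1 (congrArg Subtype.val hz)
    refine Subgroup.mem_center_iff.2 fun y => Subtype.ext ?_
    show (y : E) * z = z * y
    rw [← hk]
    exact Commute.zpow_right (Subgroup.mem_centralizer_singleton_iff.1 (hC y.2)) k
  · obtain ⟨y, hy, e⟩ := (Subgroup.map_subtype_commutator (commutator E)).ge hwN
    exact (show y = ⟨w, hwE⟩ from Subtype.ext e) ▸ hy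

/-- the value of a pair of bits -/
def tv (a b : Bool) : ZMod 3 := if a then 1 else if b then 2 else 0

/-- the two planes of the cocycle of a word -/
noncomputable def coc (pre : ℕ → ℕ → ℕ) (kA kB : ℕ → ℕ) (w : List ℕ) : (ℕ → ℕ → Bool) → Bool :=
  List.rec (motive := fun _ => (ℕ → ℕ → Bool) → Bool) (fun k => k 0 0)
    (fun x _ ih k => ih fun A B => force (pre x A) fun A => force (pre x B) fun B => force (kA x) fun C =>
      force (kB x) fun D => force (Nat.xor (Nat.lor A D) (Nat.lor B C)) fun t =>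
      force (Nat.xor t (Nat.lor A C)) fun A' => force (Nat.xor t (Nat.lor B D)) fun B' => k A' B') w

/-- the cocycle of the word has the planes `a`, `b` -/
noncomputable def cocIs (n : ℕ) (pre : ℕ → ℕ → ℕ) (kA kB : ℕ → ℕ) (a b : ℕ) (w : List ℕ) : Bool :=
  coc pre kA kB w fun A B => band (Nat.beq (Nat.land A (full n)) a) (Nat.beq (Nat.land B (full n)) b)

/-- the cocycle of a word -/
def cv (tab : ℕ → ℕ → ℕ) (kA kB : ℕ → ℕ) : List ℕ → ℕ → ZMod 3
  | [], _ => 0
  | x :: w, i => -(cv tab kA kB w (tab x i) + tv ((kA x).testBit i) ((kB x).testBit i))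

variable {n nc : ℕ} {tab pre : ℕ → ℕ → ℕ} {kA kB : ℕ → ℕ}

theorem coc_spec (L : Lets n nc tab pre) (hk : ∀ x, x < nc → kA x &&& kB x = 0) : ∀ (w : List ℕ), (∀ x ∈ w, x < nc) →
    ∀ k, coc pre kA kB w k = true → ∃ A B, k A B = true ∧ ∀ i, i < n →
      (A.testBit i && B.testBit i) = false ∧ tv (A.testBit i) (B.testBit i) = cv tab kA kB w i
  | [], _, _, h => ⟨0, 0, h, fun _ _ => by simp [tv, cv]⟩
  | x :: w, hw, k, h => by
    obtain ⟨A, B, h1, h2⟩ := coc_spec L hk w (fun y hy => hw y (List.mem_cons_of_mem _ hy)) _ h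
    simp only [force_eq] at h1
    refine ⟨_, _, h1, fun i hi => ?_⟩
    obtain ⟨l1, l2⟩ := L x (hw x List.mem_cons_self)
    obtain ⟨a, b⟩ := h2 _ (l1 i hi)
    have c : ((kA x).testBit i && (kB x).testBit i) = false := by
      rw [← Nat.testBit_and, hk x (hw x List.mem_cons_self), Nat.zero_testBit]
    have e1 : ∀ a b, Nat.xor a b = a ^^^ b := fun _ _ => rfl
    have e2 : ∀ a b, Nat.lor a b = a ||| b := fun _ _ => rfl
    simp only [cv, ← b, e1, e2, Nat.testBit_xor, Nat.testBit_or, l2 _ i hi]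
    revert a c
    generalize A.testBit _ = a, B.testBit _ = b, (kA x).testBit i = c, (kB x).testBit i = d
    revert a b c d
    decide

theorem cocIs_spec (L : Lets n nc tab pre) (hk : ∀ x, x < nc → kA x &&& kB x = 0) {w : List ℕ} (hw : ∀ x ∈ w, x < nc)
    {a b : ℕ} (h : cocIs n pre kA kB a b w = true) {i : ℕ} (hi : i < n) :
    cv tab kA kB w i = tv (a.testBit i) (b.testBit i) := by
  obtain ⟨A, B, h1, h2⟩ := coc_spec L hk w hw _ h
  rw [band_eq_true, Nat.beq_eq, Nat.beq_eq] at h1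
  have e : ∀ a, (Nat.land a (full n)).testBit i = a.testBit i := fun a => by
    rw [show Nat.land a (full n) = a &&& full n from rfl, Nat.testBit_and, testBit_full, decide_eq_true hi, Bool.and_true]
  rw [← h1.1, ← h1.2, e, e, (h2 i hi).2]

/-- the monomial lift of the letter `x` -/
def lift3 (nc : ℕ) (p : ℕ → Equiv.Perm (Fin n)) (kA kB : ℕ → ℕ) (x : ℕ) : Equiv.Perm (Fin n × ZMod 3) :=
  if x < nc then Equiv.prodShear (p x) fun i => Equiv.subLeft (tv ((kA x).testBit i) ((kB x).testBit i)) else 1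

theorem ev_lift3 [NeZero n] {p : ℕ → Equiv.Perm (Fin n)} (T : Tab p (finPt n) nc n tab) : ∀ (w : List ℕ),
    (∀ x ∈ w, x < nc) → ∀ i c, ev (lift3 nc p kA kB) w (i, c) = (ev p w i, (-1) ^ w.length * (cv tab kA kB w i + c))
  | [], _, i, c => by simp [cv]
  | x :: w, hw, i, c => by
    have hx := hw x List.mem_cons_self
    have e : (p x i : ℕ) = tab x i := by
      have := (T x hx i i.2).2
      rw [finPt_coe] at this
      rw [show p x i = _ from this, finPt_val (T x hx i i.2).1]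
    rw [ev_cons, ev_cons, Equiv.Perm.mul_apply, Equiv.Perm.mul_apply, lift3, if_pos hx, Equiv.prodShear_apply,
      ev_lift3 T w fun y hy => hw y (List.mem_cons_of_mem _ hy), e]
    simp only [cv, Equiv.subLeft_apply, List.length_cons, Prod.mk.injEq, true_and]
    ring

end H19.Cov
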